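import Cfsg.Agent.SigF.Gen
import Cfsg.Agent.Cop.Basic
import Mathlib.GroupTheory.Schreier

/-!
# Derived subgroups of fixed points under coprime action of an elementary abelian group of order `q³` (helper72)
-/

set_option autoImplicit false
set_option linter.style.haveILetI false
set_option linter.unusedSectionVars false
set_option linter.unusedVariables false

namespace Cfsg.Agent.H72.FD

open Subgroup Cfsg

variable {Γ : Type*} [Group Γ] [Finite Γ]

/-- nonidentity elements -/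
noncomputable def ni (B : Subgroup Γ) : Finset Γ := (Set.toFinite {b : Γ | b ∈ B ∧ b ≠ 1}).toFinset

theorem mem_ni {B : Subgroup Γ} {b : Γ} : b ∈ ni B ↔ b ∈ B ∧ b ≠ 1 := by
  rw [ni, Set.Finite.mem_toFinset]; rfl

theorem le_normalizer_of_comm {H N M : Subgroup Γ} (hab : ∀ x ∈ M, ∀ y ∈ M, x * y * x⁻¹ * y⁻¹ ∈ H) (hHN : H ≤ N) (hNM : N ≤ M) :
    M ≤ normalizer (N : Set Γ) := by
  have h0 : ∀ x ∈ M, ∀ n ∈ N, x * n * x⁻¹ ∈ N := by
    intro x hx n hn
    have h1 : x * n * x⁻¹ = (x * n * x⁻¹ * n⁻¹) * n := by group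
    rw [h1]
    exact mul_mem (hHN (hab x hx n (hNM hn))) hn
  intro x hx
  rw [mem_normalizer_iff]
  intro n
  refine ⟨h0 x hx n, fun h => ?_⟩
  have := h0 x⁻¹ (inv_mem hx) _ h
  have e : x⁻¹ * (x * n * x⁻¹) * x⁻¹⁻¹ = n := by group
  rwa [e] at this

theorem section_dvd {q : ℕ} [Fact q.Prime] {B H M : Subgroup Γ} (hB : IsElementaryAbelian q B) (hB2 : q ^ 2 ≤ Nat.card B)
    (hM : ¬ q ∣ Nat.card M) (hBM : B ≤ normalizer (M : Set Γ)) (hHM : H ≤ M) (hab : ∀ x ∈ M, ∀ y ∈ M, x * y * x⁻¹ * y⁻¹ ∈ H) :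
    H.relIndex M ∣ ∏ b ∈ ni B, (H ⊓ centralizer {b}).relIndex (M ⊓ centralizer {b}) := by
  classical
  have key : ∀ t : Finset Γ, H.relIndex (H ⊔ t.sup (fun b => M ⊓ centralizer {b})) ∣
      ∏ b ∈ t, (H ⊓ centralizer {b}).relIndex (M ⊓ centralizer {b}) := by
    intro t
    induction t using Finset.induction_on with
    | empty =>
      rw [Finset.sup_empty, sup_bot_eq, relIndex_self, Finset.prod_empty]
    | insert b t hb ih =>
      rw [Finset.sup_insert, Finset.prod_insert hb]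
      set N := H ⊔ t.sup (fun b => M ⊓ centralizer {b}) with hN
      have hNM : N ≤ M := sup_le hHM (Finset.sup_le (fun b _ => inf_le_left))
      have h1 : H ⊔ (M ⊓ centralizer {b} ⊔ t.sup (fun b => M ⊓ centralizer {b})) = (M ⊓ centralizer {b}) ⊔ N := by
        rw [hN, ← sup_assoc, sup_comm H, sup_assoc]
      rw [h1, ← relIndex_mul_relIndex H N _ le_sup_left le_sup_right]
      rw [Cop.relIndex_sup_eq (inf_le_left.trans (le_normalizer_of_comm hab le_sup_left hNM)), mul_comm]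
      refine mul_dvd_mul ?_ ih
      exact relIndex_dvd_of_le_left _ (inf_le_left.trans le_sup_left)
  have h2 : H ⊔ (ni B).sup (fun b => M ⊓ centralizer {b}) = M := by
    apply SigF.eq_of_fixed_le hB hB2 hM hBM (sup_le hHM (Finset.sup_le (fun b _ => inf_le_left)))
    intro a ha ha1
    exact (Finset.le_sup (f := fun b => M ⊓ centralizer {b}) (mem_ni.2 ⟨ha, ha1⟩)).trans le_sup_right
  have h3 := key (ni B)
  rwa [h2] at h3

theorem exists_section {p : ℕ} [Fact p.Prime] {B H P : Subgroup Γ} (hP : IsPGroup p P) (hHP : H < P)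
    (hBP : B ≤ normalizer (P : Set Γ)) (hBH : B ≤ normalizer (H : Set Γ)) :
    ∃ M : Subgroup Γ, H < M ∧ M ≤ P ∧ B ≤ normalizer (M : Set Γ) ∧ ∀ x ∈ M, ∀ y ∈ M, x * y * x⁻¹ * y⁻¹ ∈ H := by
  set N := P ⊓ normalizer (H : Set Γ) with hN
  have hHN : H < N := by
    have hnil : Group.IsNilpotent P := hP.isNilpotent
    obtain ⟨x, hxP, hxN, hxH⟩ := BG.exists_mem_normalizer_of_nilpotent hnil hHP.le hHP.ne
    refine lt_of_le_of_ne (le_inf hHP.le le_normalizer) (fun h => hxH ?_)
    rw [h]; exact ⟨hxP, hxN⟩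
  have hNn : ∀ x ∈ N, ∀ h ∈ H, x * h * x⁻¹ ∈ H := fun x hx h hh => (mem_normalizer_iff.1 hx.2 h).1 hh
  let M : Subgroup Γ :=
    { carrier := {x | x ∈ N ∧ ∀ n ∈ N, x * n * x⁻¹ * n⁻¹ ∈ H}
      one_mem' := ⟨one_mem _, fun n _ => by
        have : (1 : Γ) * n * 1⁻¹ * n⁻¹ = 1 := by group
        rw [this]; exact one_mem _⟩
      mul_mem' := by
        rintro x y ⟨hx1, hx2⟩ ⟨hy1, hy2⟩
        refine ⟨mul_mem hx1 hy1, fun n hn => ?_⟩
        have : x * y * n * (x * y)⁻¹ * n⁻¹ = (x * (y * n * y⁻¹ * n⁻¹) * x⁻¹) * (x * n * x⁻¹ * n⁻¹) := by group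
        rw [this]
        exact mul_mem (hNn x hx1 _ (hy2 n hn)) (hx2 n hn)
      inv_mem' := by
        rintro x ⟨hx1, hx2⟩
        refine ⟨inv_mem hx1, fun n hn => ?_⟩
        have : x⁻¹ * n * x⁻¹⁻¹ * n⁻¹ = x⁻¹ * (x * n * x⁻¹ * n⁻¹)⁻¹ * x⁻¹⁻¹ := by group
        rw [this]
        exact hNn _ (inv_mem hx1) _ (inv_mem (hx2 n hn)) }
  have hMN : M ≤ N := fun x hx => hx.1
  have hHM : H ≤ M := by
    intro h hh
    refine ⟨hHN.le hh, fun n hn => ?_⟩
    have : h * n * h⁻¹ * n⁻¹ = h * (n * h⁻¹ * n⁻¹) := by group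
    rw [this]
    exact mul_mem hh (hNn n hn _ (inv_mem hh))
  refine ⟨M, lt_of_le_of_ne hHM ?_, hMN.trans inf_le_left, ?_, fun x hx y hy => hx.2 y hy.1⟩
  · intro heq
    have hn : (H.subgroupOf N).Normal := by
      rw [normal_subgroupOf_iff_le_normalizer hHN.le]
      exact inf_le_right
    have hNp : IsPGroup p (N ⧸ H.subgroupOf N) := (hP.to_le inf_le_left).to_quotient _
    have hnt : Nontrivial (N ⧸ H.subgroupOf N) := by
      rw [← not_subsingleton_iff_nontrivial, QuotientGroup.subsingleton_iff]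
      intro h
      rw [subgroupOf_eq_top] at h
      exact hHN.not_ge h
    have hc := hNp.center_nontrivial
    obtain ⟨⟨z, hz⟩, hz1⟩ := exists_ne (1 : center (N ⧸ H.subgroupOf N))
    obtain ⟨x, rfl⟩ := QuotientGroup.mk_surjective z
    apply hz1
    apply Subtype.ext
    show (x : N ⧸ H.subgroupOf N) = 1
    rw [QuotientGroup.eq_one_iff, mem_subgroupOf, heq]
    refine ⟨x.2, fun n hn => ?_⟩
    have h1 := mem_center_iff.1 hz ((⟨n, hn⟩ : N) : N ⧸ H.subgroupOf N)
    have h2 : ((x * ⟨n, hn⟩ * x⁻¹ * ⟨n, hn⟩⁻¹ : N) : N ⧸ H.subgroupOf N) = 1 := by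
      rw [QuotientGroup.mk_mul, QuotientGroup.mk_mul, QuotientGroup.mk_mul, QuotientGroup.mk_inv, QuotientGroup.mk_inv, ← h1]
      group
    rw [QuotientGroup.eq_one_iff, mem_subgroupOf] at h2
    exact h2
  · have h0 : ∀ b ∈ B, ∀ x ∈ M, b * x * b⁻¹ ∈ M := by
      intro b hb x hx
      have hbN : ∀ c ∈ B, ∀ n ∈ N, c * n * c⁻¹ ∈ N := by
        intro c hc n hn
        refine ⟨(mem_normalizer_iff.1 (hBP hc) n).1 hn.1, ?_⟩
        show c * n * c⁻¹ ∈ normalizer (H : Set Γ)
        exact mul_mem (mul_mem (hBH hc) hn.2) (inv_mem (hBH hc))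
      refine ⟨hbN b hb x hx.1, fun n hn => ?_⟩
      have h1 := hbN b⁻¹ (inv_mem hb) n hn
      rw [inv_inv] at h1
      have h2 := hx.2 _ h1
      have h3 : b * x * b⁻¹ * n * (b * x * b⁻¹)⁻¹ * n⁻¹ = b * (x * (b⁻¹ * n * b) * x⁻¹ * (b⁻¹ * n * b)⁻¹) * b⁻¹ := by group
      rw [h3]
      exact (mem_normalizer_iff.1 (hBH hb) _).1 h2
    intro b hb
    rw [mem_normalizer_iff]
    intro x
    refine ⟨h0 b hb x, fun h => ?_⟩
    have := h0 b⁻¹ (inv_mem hb) _ h
    have e : b⁻¹ * (b * x * b⁻¹) * b⁻¹⁻¹ = x := by group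
    rwa [e] at this

theorem pgroup_dvd {q : ℕ} [Fact q.Prime] {B : Subgroup Γ} (hB : IsElementaryAbelian q B) (hB2 : q ^ 2 ≤ Nat.card B)
    {p : ℕ} [Fact p.Prime] {P : Subgroup Γ} (hP : IsPGroup p P) (hqP : ¬ q ∣ Nat.card P) (hBP : B ≤ normalizer (P : Set Γ)) :
    ∀ (k : ℕ) (H : Subgroup Γ), H.relIndex P = k → H ≤ P → B ≤ normalizer (H : Set Γ) →
    H.relIndex P ∣ ∏ b ∈ ni B, (H ⊓ centralizer {b}).relIndex (P ⊓ centralizer {b}) := by
  intro k
  induction k using Nat.strong_induction_on with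
  | _ k ih =>
    intro H hk hHP hBH
    rcases eq_or_lt_of_le hHP with h | h
    · rw [h, relIndex_self]; exact one_dvd _
    · obtain ⟨M, hHM, hMP, hBM, hab⟩ := exists_section hP h hBP hBH
      have hqM : ¬ q ∣ Nat.card M := fun hd => hqP (hd.trans (card_dvd_of_le hMP))
      have h1 := section_dvd hB hB2 hqM hBM hHM.le hab
      have h2 : H.relIndex M * M.relIndex P = H.relIndex P := relIndex_mul_relIndex H M P hHM.le hMP
      have h3 : 1 < H.relIndex M := by
        rcases Nat.lt_trichotomy (H.relIndex M) 1 with h | h | h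
        · exfalso
          have : H.relIndex M = 0 := by omega
          rw [relIndex] at this
          exact index_ne_zero_of_finite this
        · exact absurd (relIndex_eq_one.1 h) hHM.not_ge
        · exact h
      have h4 : 0 < M.relIndex P := by
        rw [relIndex]; exact Nat.pos_of_ne_zero index_ne_zero_of_finite
      have h5 := ih (M.relIndex P) (by rw [← hk, ← h2]; nlinarith) M rfl hMP hBM
      rw [← h2]
      refine (mul_dvd_mul h1 h5).trans (dvd_of_eq ?_)
      rw [← Finset.prod_mul_distrib]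
      apply Finset.prod_congr rfl
      intro b _
      exact relIndex_mul_relIndex _ _ _ (inf_le_inf_right _ hHM.le) (inf_le_inf_right _ hMP)

/-- fixed points of an invariant Sylow subgroup -/
theorem card_sylow_fixed {A L : Subgroup Γ} (hAL : A ≤ normalizer (L : Set Γ)) (hcop : (Nat.card A).Coprime (Nat.card L))
    (hsolv : Group.IsSolvable A) (p : ℕ) [hp : Fact p.Prime] (P : Sylow p L)
    (hP : A ≤ normalizer ((P : Subgroup L).map L.subtype : Set Γ)) :
    Nat.card ((P : Subgroup L).map L.subtype ⊓ centralizer (A : Set Γ) : Subgroup Γ) =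
      p ^ (Nat.card (L ⊓ centralizer (A : Set Γ) : Subgroup Γ)).factorization p := by
  obtain ⟨T⟩ : Nonempty (Sylow p (L ⊓ centralizer (A : Set Γ) : Subgroup Γ)) := inferInstance
  set U := (T : Subgroup (L ⊓ centralizer (A : Set Γ) : Subgroup Γ)).map (L ⊓ centralizer (A : Set Γ)).subtype with hU
  have hUle : U ≤ L ⊓ centralizer (A : Set Γ) := map_subtype_le _
  have hUp : IsPGroup p U := T.isPGroup'.map _
  have hUA : A ≤ normalizer (U : Set Γ) := by
    have h1 : A ≤ centralizer (U : Set Γ) := by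
      rw [le_centralizer_iff]
      exact hUle.trans inf_le_right
    exact h1.trans (Subgroup.centralizer_le_normalizer _)
  obtain ⟨P', hUP', hP'⟩ := Cop.exists_invariant_sylow_ge hAL hcop (Or.inl hsolv) p (hUle.trans inf_le_left) hUp hUA
  obtain ⟨c, hc, hcP⟩ := Cop.exists_centralizer_conj_sylow hAL hcop (Or.inl hsolv) p P' P hP' hP
  have hcardT : Nat.card U = p ^ (Nat.card (L ⊓ centralizer (A : Set Γ) : Subgroup Γ)).factorization p := by
    rw [hU, Cop.card_map_subtype, T.card_eq_multiplicity]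
  rw [← hcardT]
  apply le_antisymm
  · have h1 : IsPGroup p ((P : Subgroup L).map L.subtype ⊓ centralizer (A : Set Γ) : Subgroup Γ) :=
      (P.isPGroup'.map _).to_le inf_le_left
    have h2 : (P : Subgroup L).map L.subtype ⊓ centralizer (A : Set Γ) ≤ L ⊓ centralizer (A : Set Γ) :=
      inf_le_inf_right _ (map_subtype_le _)
    have h3 : IsPGroup p (((P : Subgroup L).map L.subtype ⊓ centralizer (A : Set Γ)).subgroupOf (L ⊓ centralizer (A : Set Γ))) :=
      h1.comap_of_injective _ (subtype_injective _)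
    obtain ⟨T', hT'⟩ := h3.exists_le_sylow
    have h4 := Subgroup.card_le_of_le hT'
    rw [Nat.card_congr (subgroupOfEquivOfLe h2).toEquiv] at h4
    rw [hU, Cop.card_map_subtype, T.card_eq_multiplicity, ← T'.card_eq_multiplicity]
    exact h4
  · have h1 : U.map (MulAut.conj (c : Γ)).toMonoidHom ≤ (P : Subgroup L).map L.subtype ⊓ centralizer (A : Set Γ) := by
      rintro _ ⟨u, hu, rfl⟩
      refine ⟨?_, ?_⟩
      · obtain ⟨v, hv, rfl⟩ := hUP' hu
        refine ⟨c * v * c⁻¹, ?_, rfl⟩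
        rw [← hcP]
        exact ⟨v, hv, rfl⟩
      · show (c : Γ) * u * (c : Γ)⁻¹ ∈ centralizer (A : Set Γ)
        exact mul_mem (mul_mem hc (hUle hu).2) (inv_mem hc)
    have h2 := Subgroup.card_le_of_le h1
    rwa [card_map_of_injective (MulAut.conj (c : Γ)).injective] at h2

theorem relIndex_pos (H L : Subgroup Γ) : 0 < H.relIndex L := by
  rw [relIndex]; exact Nat.pos_of_ne_zero index_ne_zero_of_finite

theorem card_mul_relIndex {H L : Subgroup Γ} (h : H ≤ L) : Nat.card H * H.relIndex L = Nat.card L := by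
  have := relIndex_mul_relIndex ⊥ H L bot_le h
  rwa [relIndex_bot_left, relIndex_bot_left] at this

theorem fact_relIndex {H L : Subgroup Γ} (h : H ≤ L) (p : ℕ) :
    (Nat.card H).factorization p + (H.relIndex L).factorization p = (Nat.card L).factorization p := by
  rw [← card_mul_relIndex h, Nat.factorization_mul Nat.card_pos.ne' (relIndex_pos H L).ne']; rfl

theorem relIndex_eq_pow {H L : Subgroup Γ} (h : H ≤ L) {p a b : ℕ} [hp : Fact p.Prime] (h1 : Nat.card H = p ^ a) (h2 : Nat.card L = p ^ b) :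
    H.relIndex L = p ^ (b - a) := by
  have h3 := card_mul_relIndex h
  rw [h1, h2] at h3
  have hab : a ≤ b := by
    have : p ^ a ∣ p ^ b := ⟨_, h3.symm⟩
    exact (Nat.pow_dvd_pow_iff_le_right hp.out.one_lt).1 this
  have hpos : 0 < p ^ a := pow_pos hp.out.pos a
  apply Nat.eq_of_mul_eq_mul_left hpos
  rw [h3, ← pow_add, Nat.add_sub_cancel' hab]

theorem solv_of_pgroup {q : ℕ} [Fact q.Prime] {B : Subgroup Γ} (h : IsPGroup q B) : Group.IsSolvable B := by
  have := h.isNilpotent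
  infer_instance

/-- the order formula inequality -/
theorem relIndex_dvd {q : ℕ} [hq : Fact q.Prime] {B : Subgroup Γ} (hB : IsElementaryAbelian q B) (hB2 : q ^ 2 ≤ Nat.card B)
    {H L : Subgroup Γ} (hqL : ¬ q ∣ Nat.card L) (hBL : B ≤ normalizer (L : Set Γ)) (hBH : B ≤ normalizer (H : Set Γ)) (hHL : H ≤ L) :
    H.relIndex L ∣ ∏ b ∈ ni B, (H ⊓ centralizer {b}).relIndex (L ⊓ centralizer {b}) := by
  have hR : ∏ b ∈ ni B, (H ⊓ centralizer {b}).relIndex (L ⊓ centralizer {b}) ≠ 0 :=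
    Finset.prod_ne_zero_iff.2 (fun b _ => (relIndex_pos _ _).ne')
  have hBq : IsPGroup q B := SigF.isPGroup_of_elem hB
  have hBc : IsMulCommutative B := hB.1
  have hBs : Group.IsSolvable B := solv_of_pgroup hBq
  have hcop : ∀ {X : Subgroup Γ}, X ≤ B → ∀ {Y : Subgroup Γ}, Y ≤ L → (Nat.card X).Coprime (Nat.card Y) := by
    intro X hX Y hY
    obtain ⟨n, hn⟩ := IsPGroup.iff_card.1 (hBq.to_le hX)
    rw [hn]
    apply Nat.Coprime.pow_left
    rw [Nat.Prime.coprime_iff_not_dvd hq.out]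
    exact fun h => hqL (h.trans (card_dvd_of_le hY))
  rw [← Nat.factorization_prime_le_iff_dvd (relIndex_pos H L).ne' hR]
  intro p hp
  haveI := Fact.mk hp
  rw [← hp.pow_dvd_iff_le_factorization hR]
  obtain ⟨PH, hPH⟩ := Cop.exists_invariant_sylow hBH (hcop le_rfl hHL) (Or.inl hBs) p
  set U := (PH : Subgroup H).map H.subtype with hU
  have hUH : U ≤ H := map_subtype_le _
  have hUp : IsPGroup p U := PH.isPGroup'.map _
  obtain ⟨PL, hUPL, hPL⟩ := Cop.exists_invariant_sylow_ge hBL (hcop le_rfl le_rfl) (Or.inl hBs) p (hUH.trans hHL) hUp hPH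
  set V := (PL : Subgroup L).map L.subtype with hV
  have hVL : V ≤ L := map_subtype_le _
  have hVp : IsPGroup p V := PL.isPGroup'.map _
  have cU : Nat.card U = p ^ (Nat.card H).factorization p := by rw [hU, Cop.card_map_subtype, PH.card_eq_multiplicity]
  have cV : Nat.card V = p ^ (Nat.card L).factorization p := by rw [hV, Cop.card_map_subtype, PL.card_eq_multiplicity]
  have h1 : U.relIndex V = p ^ (H.relIndex L).factorization p := by
    rw [relIndex_eq_pow hUPL cU cV]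
    congr 1
    have := fact_relIndex hHL p
    omega
  rw [← h1]
  refine (pgroup_dvd hB hB2 hVp (fun h => hqL (h.trans (card_dvd_of_le hVL))) hPL _ U rfl hUPL hPH).trans ?_
  apply Finset.prod_dvd_prod_of_dvd
  intro b hb
  obtain ⟨hbB, hb1⟩ := mem_ni.1 hb
  have hz : zpowers b ≤ B := (zpowers_le).2 hbB
  have hzs : Group.IsSolvable (zpowers b) := solv_of_pgroup (hBq.to_le hz)
  have e : centralizer ((zpowers b : Subgroup Γ) : Set Γ) = centralizer ({b} : Set Γ) := by
    rw [zpowers_eq_closure, centralizer_closure]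
  have c1 := card_sylow_fixed (hz.trans hBH) (hcop hz hHL) hzs p PH (hz.trans hPH)
  have c2 := card_sylow_fixed (hz.trans hBL) (hcop hz le_rfl) hzs p PL (hz.trans hPL)
  rw [e] at c1 c2
  have hle : U ⊓ centralizer ({b} : Set Γ) ≤ V ⊓ centralizer ({b} : Set Γ) := inf_le_inf_right _ hUPL
  rw [relIndex_eq_pow hle c1 c2]
  have h2 := fact_relIndex (show H ⊓ centralizer ({b} : Set Γ) ≤ L ⊓ centralizer ({b} : Set Γ) from inf_le_inf_right _ hHL) p
  have h3 : (Nat.card (L ⊓ centralizer ({b} : Set Γ) : Subgroup Γ)).factorization p -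
      (Nat.card (H ⊓ centralizer ({b} : Set Γ) : Subgroup Γ)).factorization p =
      ((H ⊓ centralizer ({b} : Set Γ)).relIndex (L ⊓ centralizer ({b} : Set Γ))).factorization p := by omega
  rw [h3]
  exact Nat.ordProj_dvd _ _

/-- the class of `x` is bounded by the derived subgroup -/
theorem relIndex_centralizer_le {K : Subgroup Γ} {x : Γ} (hx : x ∈ K) :
    (K ⊓ centralizer {x}).relIndex K ≤ Nat.card (⁅K, K⁆ : Subgroup Γ) := by
  rw [inf_relIndex_left, relIndex, index]
  have : Function.Injective (fun c : K ⧸ (centralizer ({x} : Set Γ)).subgroupOf K => Quotient.liftOn' c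
      (fun k : K => (⟨(k : Γ) * x * (k : Γ)⁻¹ * x⁻¹, commutator_mem_commutator k.2 hx⟩ : (⁅K, K⁆ : Subgroup Γ))) (by
        intro a b hab
        have h1 : a⁻¹ * b ∈ (centralizer ({x} : Set Γ)).subgroupOf K := by
          rwa [← QuotientGroup.leftRel_apply]
        have h2 : (a : Γ)⁻¹ * b * x = x * ((a : Γ)⁻¹ * b) := mem_centralizer_singleton_iff.1 (mem_subgroupOf.1 h1)
        apply Subtype.ext
        show (a : Γ) * x * (a : Γ)⁻¹ * x⁻¹ = (b : Γ) * x * (b : Γ)⁻¹ * x⁻¹
        congr 1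
        calc (a : Γ) * x * (a : Γ)⁻¹ = (a : Γ) * (x * ((a : Γ)⁻¹ * b)) * (b : Γ)⁻¹ := by group
          _ = (a : Γ) * ((a : Γ)⁻¹ * b * x) * (b : Γ)⁻¹ := by rw [h2]
          _ = (b : Γ) * x * (b : Γ)⁻¹ := by group)) := by
    intro c d
    refine Quotient.inductionOn₂' c d ?_
    intro a b hab
    have h1 : (a : Γ) * x * (a : Γ)⁻¹ * x⁻¹ = (b : Γ) * x * (b : Γ)⁻¹ * x⁻¹ := congrArg Subtype.val hab
    have h2 : (a : Γ) * x * (a : Γ)⁻¹ = (b : Γ) * x * (b : Γ)⁻¹ := mul_right_cancel h1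
    apply Quotient.sound'
    rw [QuotientGroup.leftRel_apply, mem_subgroupOf, mem_centralizer_singleton_iff]
    show (a : Γ)⁻¹ * b * x = x * ((a : Γ)⁻¹ * b)
    calc (a : Γ)⁻¹ * b * x = (a : Γ)⁻¹ * ((b : Γ) * x * (b : Γ)⁻¹) * b := by group
      _ = (a : Γ)⁻¹ * ((a : Γ) * x * (a : Γ)⁻¹) * b := by rw [h2]
      _ = x * ((a : Γ)⁻¹ * b) := by group
  exact Nat.card_le_card_of_injective _ this

end Cfsg.Agent.H72.FD
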