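import Cfsg.Agent.H72.FixDer

/-!
# Derived subgroups of fixed points under coprime action, II: generation and bounds (helper72)
-/

set_option autoImplicit false
set_option linter.style.haveILetI false
set_option linter.unusedSectionVars false
set_option linter.unusedVariables false

namespace Cfsg.Agent.H72.FD

open Subgroup Cfsg
open scoped commutatorElement

section Gen

variable {Γ : Type*} [Group Γ] [Finite Γ]

/-- the derived subgroup of `C_K(a)` -/
def Wa (K : Subgroup Γ) (a : Γ) : Subgroup Γ := ⁅K ⊓ centralizer {a}, K ⊓ centralizer {a}⁆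

/-- the generators -/
def TT (q : ℕ) (A K : Subgroup Γ) : Set Γ :=
  {t | ∃ a ∈ A, a ≠ 1 ∧ t ∈ Wa K a ∧ ∃ B ≤ A, B.relIndex A ∣ q ∧ t ∈ centralizer (B : Set Γ)}

variable {q : ℕ} [hq : Fact q.Prime] {A K : Subgroup Γ} (hA : IsElementaryAbelian q A) (hA3 : q ^ 3 ≤ Nat.card A)
  (hK : ¬ q ∣ Nat.card K) (hAK : A ≤ normalizer (K : Set Γ))

theorem mem_normalizer_of_forall {H : Subgroup Γ} {g : Γ} (h : ∀ x ∈ H, g * x * g⁻¹ ∈ H) : g ∈ normalizer (H : Set Γ) := by
  have h1 : H.map (MulAut.conj g).toMonoidHom ≤ H := by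
    rintro _ ⟨x, hx, rfl⟩
    exact h x hx
  have h2 : H.map (MulAut.conj g).toMonoidHom = H := eq_of_le_of_card_ge h1 (by
    rw [card_map_of_injective (MulAut.conj g).injective])
  rw [mem_normalizer_iff]
  intro x
  refine ⟨h x, fun hx => ?_⟩
  rw [← h2] at hx
  obtain ⟨y, hy, hyx⟩ := hx
  have : y = x := by
    have h3 : g * y * g⁻¹ = g * x * g⁻¹ := hyx
    exact mul_left_cancel (mul_right_cancel h3)
  rwa [← this]

include hA hAK in
theorem le_normalizer_fixed {a : Γ} (ha : a ∈ A) : A ≤ normalizer ((K ⊓ centralizer {a} : Subgroup Γ) : Set Γ) := by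
  intro b hb
  apply mem_normalizer_of_forall
  rintro x ⟨hx1, hx2⟩
  refine ⟨(mem_normalizer_iff.1 (hAK hb) x).1 hx1, ?_⟩
  have h1 : a * b = b * a := SigF.elem_comm hA ha hb
  have h2 : x * a = a * x := mem_centralizer_singleton_iff.1 hx2
  show b * x * b⁻¹ ∈ centralizer {a}
  rw [mem_centralizer_singleton_iff]
  have h3 : b⁻¹ * a = a * b⁻¹ := by rw [inv_mul_eq_iff_eq_mul, ← mul_assoc, eq_mul_inv_iff_mul_eq, h1]
  calc b * x * b⁻¹ * a = b * (x * (b⁻¹ * a)) := by group
    _ = b * ((x * a) * b⁻¹) := by rw [h3]; group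
    _ = b * (a * x * b⁻¹) := by rw [h2]
    _ = (a * b) * x * b⁻¹ := by rw [h1]; group
    _ = a * (b * x * b⁻¹) := by group

include hA hAK in
theorem le_normalizer_Wa {a : Γ} (ha : a ∈ A) : A ≤ normalizer (Wa K a : Set Γ) := by
  intro b hb
  have h1 := mem_normalizer_iff.1 (le_normalizer_fixed hA hAK ha hb)
  apply mem_normalizer_of_forall
  intro x hx
  have h2 : (Wa K a).map (MulAut.conj b).toMonoidHom ≤ Wa K a := by
    rw [Wa, map_commutator]
    apply commutator_mono
    · rintro _ ⟨y, hy, rfl⟩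
      exact (h1 y).1 hy
    · rintro _ ⟨y, hy, rfl⟩
      exact (h1 y).1 hy
  exact h2 ⟨x, hx, rfl⟩

theorem Wa_le (a : Γ) : Wa K a ≤ K := (commutator_mono inf_le_left inf_le_left).trans (commutator_le_self K)

include hA hAK hK in
theorem Wa_le_closure {a : Γ} (ha : a ∈ A) (ha1 : a ≠ 1) : Wa K a ≤ closure (TT q A K) := by
  have h1 : Wa K a ⊓ closure (TT q A K) = Wa K a := by
    apply SigF.eq_of_hyperplane_fixed_le hA (fun h => hK (h.trans (card_dvd_of_le (Wa_le a)))) (le_normalizer_Wa hA hAK ha) inf_le_left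
    rintro B hBA hBi x ⟨hx1, hx2⟩
    exact ⟨hx1, subset_closure ⟨a, ha, ha1, hx1, B, hBA, hBi, hx2⟩⟩
  exact inf_eq_left.1 h1

include hA hAK hK hA3 in
theorem comm_mem {B E : Subgroup Γ} (hB : B ≤ A) (hBi : B.relIndex A ∣ q) (hEi : E.relIndex A ∣ q) {x t : Γ}
    (hx : x ∈ K) (hxB : x ∈ centralizer (B : Set Γ)) (ht : t ∈ K) (htE : t ∈ centralizer (E : Set Γ)) :
    x * t * x⁻¹ * t⁻¹ ∈ closure (TT q A K) := by
  obtain ⟨c, ⟨hcB, hcE⟩, hc1⟩ := SigF.exists_mem_inf_of_relIndex hA3 hB hBi hEi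
  apply Wa_le_closure hA hK hAK (hB hcB) hc1
  refine commutator_mem_commutator ⟨hx, ?_⟩ ⟨ht, ?_⟩
  · exact mem_centralizer_singleton_iff.2 (mem_centralizer_iff.1 hxB c hcB).symm
  · exact mem_centralizer_singleton_iff.2 (mem_centralizer_iff.1 htE c hcE).symm

theorem TT_le : closure (TT q A K) ≤ K := by
  rw [closure_le]
  rintro t ⟨a, ha, ha1, ht, -⟩
  exact Wa_le a ht

include hA hAK hK hA3 in
theorem le_normalizer_TT : K ≤ normalizer (closure (TT q A K) : Set Γ) := by
  have h1 : K ⊓ normalizer (closure (TT q A K) : Set Γ) = K := by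
    apply SigF.eq_of_hyperplane_fixed_le hA hK hAK inf_le_left
    rintro B hBA hBi x ⟨hx1, hx2⟩
    refine ⟨hx1, ?_⟩
    apply mem_normalizer_of_forall
    intro y hy
    refine closure_induction (p := fun y _ => x * y * x⁻¹ ∈ closure (TT q A K)) ?_ ?_ ?_ ?_ hy
    · intro t ht
      have h2 : x * t * x⁻¹ = (x * t * x⁻¹ * t⁻¹) * t := by group
      rw [h2]
      have ht' := ht
      obtain ⟨a, ha, ha1, htW, E, hEA, hEi, htE⟩ := ht
      exact mul_mem (comm_mem hA hA3 hK hAK hBA hBi hEi hx1 hx2 (Wa_le a htW) htE) (subset_closure ht')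
    · rw [mul_one, mul_inv_cancel]; exact one_mem _
    · intro u v _ _ hu hv
      have : x * (u * v) * x⁻¹ = (x * u * x⁻¹) * (x * v * x⁻¹) := by group
      rw [this]; exact mul_mem hu hv
    · intro u _ hu
      have : x * u⁻¹ * x⁻¹ = (x * u * x⁻¹)⁻¹ := by group
      rw [this]; exact inv_mem hu
  exact inf_eq_left.1 h1

include hA hAK in
theorem le_normalizer_TT' : A ≤ normalizer (closure (TT q A K) : Set Γ) := by
  intro x hx
  apply mem_normalizer_of_forall
  intro y hy
  refine closure_induction (p := fun y _ => x * y * x⁻¹ ∈ closure (TT q A K)) ?_ ?_ ?_ ?_ hy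
  · rintro t ⟨a, ha, ha1, htW, E, hEA, hEi, htE⟩
    apply Subgroup.subset_closure
    refine ⟨a, ha, ha1, (mem_normalizer_iff.1 (le_normalizer_Wa hA hAK ha hx) t).1 htW, E, hEA, hEi, ?_⟩
    rw [mem_centralizer_iff]
    intro e he
    have h1 : e * x = x * e := SigF.elem_comm hA (hEA he) hx
    have h2 := mem_centralizer_iff.1 htE e he
    have h3 : e * x⁻¹ = x⁻¹ * e := by rw [eq_inv_mul_iff_mul_eq, ← mul_assoc, ← h1, mul_inv_cancel_right]
    calc e * (x * t * x⁻¹) = (e * x) * t * x⁻¹ := by group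
      _ = x * (e * t) * x⁻¹ := by rw [h1]; group
      _ = x * t * (e * x⁻¹) := by rw [h2]; group
      _ = x * t * x⁻¹ * e := by rw [h3]; group
  · rw [mul_one, mul_inv_cancel]; exact one_mem _
  · intro u v _ _ hu hv
    have : x * (u * v) * x⁻¹ = (x * u * x⁻¹) * (x * v * x⁻¹) := by group
    rw [this]; exact mul_mem hu hv
  · intro u _ hu
    have : x * u⁻¹ * x⁻¹ = (x * u * x⁻¹)⁻¹ := by group
    rw [this]; exact inv_mem hu

include hA hAK hK hA3 in
/-- `K' = ⟨C_K(a)' : 1 ≠ a ∈ A⟩` -/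
theorem commutator_le_TT (hsup : K ⊔ A = ⊤) : ⁅K, K⁆ ≤ closure (TT q A K) := by
  set N := closure (TT q A K) with hN
  have hNn : N.Normal := by
    rw [← normalizer_eq_top_iff, eq_top_iff, ← hsup]
    exact sup_le (le_normalizer_TT hA hA3 hK hAK) (le_normalizer_TT' hA hAK)
  set π := QuotientGroup.mk' N with hπ
  have hcomm : ∀ {x y : Γ}, x * y * x⁻¹ * y⁻¹ ∈ N → π y * π x = π x * π y := by
    intro x y h
    have h1 : π (x * y * x⁻¹ * y⁻¹) = 1 := by
      rw [← MonoidHom.mem_ker, QuotientGroup.ker_mk']; exact h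
    rw [map_mul, map_mul, map_mul, map_inv, map_inv] at h1
    have h2 := mul_inv_eq_one.1 h1
    rw [mul_inv_eq_iff_eq_mul] at h2
    exact h2.symm
  have h1 : ∀ B ≤ A, B.relIndex A ∣ q → ∀ x ∈ K ⊓ centralizer (B : Set Γ), K ≤ (centralizer {π x}).comap π := by
    intro B hBA hBi x hx
    have h2 : K ⊓ (centralizer {π x}).comap π = K := by
      apply SigF.eq_of_hyperplane_fixed_le hA hK hAK inf_le_left
      rintro E hEA hEi y ⟨hy1, hy2⟩
      refine ⟨hy1, ?_⟩
      show π y ∈ centralizer {π x}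
      rw [mem_centralizer_singleton_iff]
      exact hcomm (comm_mem hA hA3 hK hAK hBA hBi hEi hx.1 hx.2 hy1 hy2)
    exact inf_eq_left.1 h2
  have h2 : ∀ y ∈ K, K ≤ (centralizer {π y}).comap π := by
    intro y hy
    have h3 : K ⊓ (centralizer {π y}).comap π = K := by
      apply SigF.eq_of_hyperplane_fixed_le hA hK hAK inf_le_left
      rintro B hBA hBi x hx
      refine ⟨hx.1, ?_⟩
      show π x ∈ centralizer {π y}
      have h4 : π y ∈ centralizer {π x} := h1 B hBA hBi x hx hy
      rw [mem_centralizer_singleton_iff] at h4 ⊢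
      exact h4.symm
    exact inf_eq_left.1 h3
  rw [commutator_le]
  intro x hx y hy
  have h3 : π x ∈ centralizer {π y} := h2 y hy hx
  rw [mem_centralizer_singleton_iff] at h3
  rw [← QuotientGroup.ker_mk' N, MonoidHom.mem_ker, ← hπ, commutatorElement_def, map_mul, map_mul, map_mul, map_inv, map_inv, h3]
  group

include hA hAK hK in
theorem index_TT_le {m : ℕ} (hm : 1 ≤ m) (hWm : ∀ a ∈ A, a ≠ 1 → Nat.card (Wa K a) ≤ m) (hA3 : Nat.card A = q ^ 3) {t : Γ} (ht : t ∈ TT q A K) :
    (K ⊓ centralizer {t}).relIndex K ≤ m ^ (q ^ 3) := by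
  obtain ⟨a, ha, ha1, htW, B, hBA, hBi, htB⟩ := ht
  have htK : t ∈ K := Wa_le a htW
  have hB : IsElementaryAbelian q B := SigF.elem_mono hA hBA
  have hB2 : q ^ 2 ≤ Nat.card B := SigF.card_ge_of_relIndex (n := 2) hA3.ge hBA (Nat.le_of_dvd hq.out.pos hBi)
  have hBt : B ≤ normalizer ((K ⊓ centralizer {t} : Subgroup Γ) : Set Γ) := by
    intro b hb
    apply mem_normalizer_of_forall
    rintro x ⟨hx1, hx2⟩
    refine ⟨(mem_normalizer_iff.1 (hAK (hBA hb)) x).1 hx1, ?_⟩
    show b * x * b⁻¹ ∈ centralizer {t}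
    have h1 : b ∈ centralizer {t} := mem_centralizer_singleton_iff.2 (mem_centralizer_iff.1 htB b hb)
    exact mul_mem (mul_mem h1 hx2) (inv_mem h1)
  have h1 := relIndex_dvd hB hB2 hK (hBA.trans hAK) hBt inf_le_left
  have h2 : ∀ b ∈ ni B, (K ⊓ centralizer {t} ⊓ centralizer {b}).relIndex (K ⊓ centralizer {b}) ≤ m := by
    intro b hb
    obtain ⟨hb1, hb2⟩ := mem_ni.1 hb
    have h3 : t ∈ K ⊓ centralizer {b} := ⟨htK, mem_centralizer_singleton_iff.2 (mem_centralizer_iff.1 htB b hb1).symm⟩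
    have h4 := relIndex_centralizer_le h3
    rw [inf_right_comm]
    exact h4.trans (hWm b (hBA hb1) hb2)
  have h3 : (K ⊓ centralizer {t}).relIndex K ≤ ∏ b ∈ ni B, (K ⊓ centralizer {t} ⊓ centralizer {b}).relIndex (K ⊓ centralizer {b}) :=
    Nat.le_of_dvd (Finset.prod_pos (fun b _ => relIndex_pos _ _)) h1
  refine h3.trans ((Finset.prod_le_pow_card _ _ _ h2).trans ?_)
  apply Nat.pow_le_pow_right hm
  have h5 : (ni B).card ≤ Nat.card B := by
    have : (ni B).card = Nat.card (ni B) := by simp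
    rw [this]
    exact Nat.card_le_card_of_injective (fun x : ni B => (⟨x, (mem_ni.1 x.2).1⟩ : B)) (fun x y h => Subtype.ext (congrArg (fun z : B => (z : Γ)) h))
  exact h5.trans ((Subgroup.card_le_of_le hBA).trans hA3.le)

end Gen

/-- the bounding function -/
def FF (q m : ℕ) : ℕ :=
  ((m ^ (q ^ 3)) ^ (q ^ 3 * m)) ^ ((m ^ (q ^ 3)) ^ (q ^ 3 * m) * ((m ^ (q ^ 3)) ^ (q ^ 3 * m)) ^ 2 + 1) * m ^ (q ^ 3 * m)

section Bound

variable {D : Type*} [Group D] [Finite D]

theorem card_commutatorSet_le : Nat.card (commutatorSet D) ≤ (center D).index ^ 2 := by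
  classical
  have hsub : commutatorSet D ⊆ Set.range (fun z : (D ⧸ center D) × (D ⧸ center D) => ⁅z.1.out, z.2.out⁆) := by
    rintro _ ⟨g, h, rfl⟩
    refine ⟨((g : D ⧸ center D), (h : D ⧸ center D)), ?_⟩
    obtain ⟨u, hu⟩ := QuotientGroup.mk_out_eq_mul (center D) g
    obtain ⟨v, hv⟩ := QuotientGroup.mk_out_eq_mul (center D) h
    show ⁅(g : D ⧸ center D).out, (h : D ⧸ center D).out⁆ = ⁅g, h⁆
    rw [hu, hv, commutatorElement_def, commutatorElement_def]
    have hu' : ∀ x : D, x * (u : D) = u * x := fun x => mem_center_iff.1 u.2 x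
    have hv' : ∀ x : D, x * (v : D) = v * x := fun x => mem_center_iff.1 v.2 x
    calc g * u * (h * v) * (g * u)⁻¹ * (h * v)⁻¹
        = g * (u * h) * (v * (u : D)⁻¹ * g⁻¹) * (v : D)⁻¹ * h⁻¹ := by group
      _ = g * (h * u) * (v * (u : D)⁻¹ * g⁻¹) * (v : D)⁻¹ * h⁻¹ := by rw [hu' h]
      _ = g * h * u * (v * ((u : D)⁻¹ * g⁻¹)) * (v : D)⁻¹ * h⁻¹ := by group
      _ = g * h * u * (((u : D)⁻¹ * g⁻¹) * v) * (v : D)⁻¹ * h⁻¹ := by rw [hv']
      _ = g * h * g⁻¹ * h⁻¹ := by group
  have h1 : Nat.card (commutatorSet D) ≤ Nat.card (Set.range (fun z : (D ⧸ center D) × (D ⧸ center D) => ⁅z.1.out, z.2.out⁆)) :=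
    Nat.card_mono (Set.toFinite _) hsub
  refine h1.trans ((Finite.card_range_le _).trans ?_)
  rw [Nat.card_prod, sq]; rfl

theorem card_comm_le {Q : Type*} [CommGroup Q] [Finite Q] {m : ℕ} (t : Finset Q) (ht : ∀ x ∈ t, orderOf x ≤ m) :
    Nat.card (closure (t : Set Q)) ≤ m ^ t.card := by
  classical
  induction t using Finset.induction_on with
  | empty =>
    rw [Finset.coe_empty, Subgroup.closure_empty, card_bot, Finset.card_empty, pow_zero]
  | insert b t hb ih =>
    rw [Finset.coe_insert, Set.insert_eq, Subgroup.closure_union, Finset.card_insert_of_notMem hb, pow_succ]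
    have h1 := ih (fun x hx => ht x (Finset.mem_insert_of_mem hx))
    have h2 := ht b (Finset.mem_insert_self _ _)
    rw [← zpowers_eq_closure]
    have h3 := card_mul_relIndex (show closure (t : Set Q) ≤ zpowers b ⊔ closure (t : Set Q) from le_sup_right)
    have h4 : zpowers b ≤ normalizer (closure (t : Set Q) : Set Q) := by
      rw [normalizer_eq_top]; exact le_top
    rw [Cop.relIndex_sup_eq h4] at h3
    rw [← h3]
    refine Nat.mul_le_mul h1 ?_
    refine le_trans ?_ h2
    rw [← Nat.card_zpowers]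
    exact Nat.le_of_dvd Nat.card_pos (relIndex_dvd_card _ _)

/-- bound for a group generated by few elements with small classes and small orders -/
theorem card_bound {r c m : ℕ} (hm : 1 ≤ m) (hc : 1 ≤ c) (t : Finset D) (ht : closure (t : Set D) = ⊤) (hr : t.card ≤ r)
    (hc' : ∀ x ∈ t, (centralizer ({x} : Set D)).index ≤ c) (ho : ∀ x ∈ t, orderOf x ≤ m) :
    Nat.card D ≤ (c ^ r) ^ (c ^ r * (c ^ r) ^ 2 + 1) * m ^ r := by
  classical
  -- the center
  have h1 : (center D).index ≤ c ^ r := by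
    have h2 : (⨅ x : t, centralizer ({(x : D)} : Set D)) ≤ center D := by
      intro z hz
      rw [mem_iInf] at hz
      have h3 : closure (t : Set D) ≤ centralizer ({z} : Set D) := by
        rw [closure_le]
        intro x hx
        exact mem_centralizer_singleton_iff.2 (mem_centralizer_singleton_iff.1 (hz ⟨x, hx⟩)).symm
      rw [ht] at h3
      rw [mem_center_iff]
      intro g
      exact mem_centralizer_singleton_iff.1 (h3 (mem_top g))
    have h4 : (center D).index ≤ (⨅ x : t, centralizer ({(x : D)} : Set D)).index :=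
      Nat.le_of_dvd (Nat.pos_of_ne_zero index_ne_zero_of_finite) (index_dvd_of_le h2)
    refine h4.trans ((index_iInf_le _).trans ?_)
    have h6 : ∀ x ∈ (Finset.univ : Finset t), (centralizer ({(x : D)} : Set D)).index ≤ c := fun x _ => hc' _ x.2
    refine (Finset.prod_le_pow_card _ _ c h6).trans ?_
    apply Nat.pow_le_pow_right hc
    simpa using hr
  have h0 : 1 ≤ (center D).index := Nat.pos_of_ne_zero index_ne_zero_of_finite
  have h2 : Nat.card (_root_.commutator D) ≤ (c ^ r) ^ (c ^ r * (c ^ r) ^ 2 + 1) := by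
    have h3 := Nat.le_of_dvd (pow_pos h0 _) (card_commutator_dvd_index_center_pow D)
    refine h3.trans ?_
    refine (Nat.pow_le_pow_left h1 _).trans (Nat.pow_le_pow_right (h0.trans h1) ?_)
    apply Nat.add_le_add_right
    exact Nat.mul_le_mul h1 (card_commutatorSet_le.trans (Nat.pow_le_pow_left h1 2))
  have h3 : Nat.card (Abelianization D) ≤ m ^ r := by
    have h4 : closure ((t.image (Abelianization.of (G := D)) : Finset (Abelianization D)) : Set (Abelianization D)) = ⊤ := by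
      rw [Finset.coe_image, ← MonoidHom.map_closure, ht, ← MonoidHom.range_eq_map, MonoidHom.range_eq_top]
      exact QuotientGroup.mk'_surjective _
    have h5 := card_comm_le (m := m) (t.image (Abelianization.of (G := D))) (by
      intro x hx
      obtain ⟨y, hy, rfl⟩ := Finset.mem_image.1 hx
      exact (Nat.le_of_dvd (orderOf_pos y) (orderOf_map_dvd _ y)).trans (ho y hy))
    rw [h4, card_top] at h5
    exact h5.trans (Nat.pow_le_pow_right hm (Finset.card_image_le.trans hr))
  rw [← (_root_.commutator D).card_mul_index]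
  exact Nat.mul_le_mul h2 h3

end Bound

section Main

variable {Γ : Type*} [Group Γ] [Finite Γ]

theorem ni_card_le (B : Subgroup Γ) : (ni B).card ≤ Nat.card B := by
  have : (ni B).card = Nat.card (ni B) := by simp
  rw [this]
  exact Nat.card_le_card_of_injective (fun x : ni B => (⟨x, (mem_ni.1 x.2).1⟩ : B)) (fun x y h => Subtype.ext (congrArg (fun z : B => (z : Γ)) h))

theorem main_bound {q : ℕ} [hq : Fact q.Prime] {A K : Subgroup Γ} (hA : IsElementaryAbelian q A) (hA3 : Nat.card A = q ^ 3)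
    (hK : ¬ q ∣ Nat.card K) (hAK : A ≤ normalizer (K : Set Γ)) (hsup : K ⊔ A = ⊤) {m : ℕ} (hm : 1 ≤ m)
    (hWm : ∀ a ∈ A, a ≠ 1 → Nat.card (Wa K a) ≤ m) : Nat.card (⁅K, K⁆ : Subgroup Γ) ≤ FF q m := by
  classical
  have h1 := commutator_le_TT hA hA3.ge hK hAK hsup
  refine (Subgroup.card_le_of_le h1).trans ?_
  set D := closure (TT q A K) with hD
  have hDK : D ≤ K := TT_le
  set t : Finset D := (Set.toFinite {x : D | (x : Γ) ∈ TT q A K}).toFinset with ht
  have hmem : ∀ x : D, x ∈ t ↔ (x : Γ) ∈ TT q A K := fun x => by rw [ht, Set.Finite.mem_toFinset]; rfl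
  refine card_bound (r := q ^ 3 * m) (c := m ^ (q ^ 3)) hm (Nat.one_le_pow _ _ hm) t ?_ ?_ ?_ ?_
  · have h2 := closure_closure_coe_preimage (k := TT q A K)
    have h3 : (t : Set D) = ((↑) : closure (TT q A K) → Γ) ⁻¹' (TT q A K) := by
      ext x
      rw [Finset.mem_coe, hmem]; rfl
    rw [h3]
    exact h2
  · have h2 : t.card ≤ ((ni A).biUnion (fun a => (Set.toFinite (Wa K a : Set Γ)).toFinset)).card := by
      apply Finset.card_le_card_of_injOn (fun x : D => (x : Γ))
      · intro x hx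
        obtain ⟨a, ha, ha1, htW, -⟩ := (hmem x).1 hx
        rw [Finset.mem_coe, Finset.mem_biUnion]
        exact ⟨a, mem_ni.2 ⟨ha, ha1⟩, by rw [Set.Finite.mem_toFinset]; exact htW⟩
      · intro x _ y _ h
        exact Subtype.ext h
    refine h2.trans (Finset.card_biUnion_le.trans ?_)
    have h3 : ∀ a ∈ ni A, ((Set.toFinite (Wa K a : Set Γ)).toFinset).card ≤ m := by
      intro a ha
      obtain ⟨ha1, ha2⟩ := mem_ni.1 ha
      rw [← Nat.card_eq_card_finite_toFinset]
      exact hWm a ha1 ha2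
    refine (Finset.sum_le_card_nsmul _ _ m h3).trans ?_
    rw [smul_eq_mul]
    exact Nat.mul_le_mul_right m ((ni_card_le A).trans hA3.le)
  · intro x hx
    have h2 := index_TT_le hA hK hAK hm hWm hA3 ((hmem x).1 hx)
    rw [inf_relIndex_left] at h2
    have h3 : centralizer ({x} : Set D) = (centralizer ({(x : Γ)} : Set Γ)).subgroupOf D := by
      ext y
      rw [mem_subgroupOf, mem_centralizer_singleton_iff, mem_centralizer_singleton_iff]
      exact ⟨fun h => congrArg Subtype.val h, fun h => Subtype.ext h⟩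
    rw [h3]
    exact (relIndex_le_of_le_right hDK (relIndex_pos _ _).ne').trans h2
  · intro x hx
    obtain ⟨a, ha, ha1, htW, -⟩ := (hmem x).1 hx
    rw [← Subgroup.orderOf_coe, ← Subgroup.orderOf_mk (x : Γ) htW]
    exact (Nat.le_of_dvd Nat.card_pos (orderOf_dvd_natCard _)).trans (hWm a ha ha1)

end Main

section Ext

variable {q m : ℕ} {A G : Type*} [Group A] [Finite A] [Group G] [Finite G] [MulDistribMulAction A G]

open SemidirectProduct in
theorem ext_bound (hq : q.Prime) (hA3 : Nat.card A = q ^ 3) (hAc : ∀ a b : A, a * b = b * a) (hAe : ∀ a : A, a ^ q = 1)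
    (hG : ¬ q ∣ Nat.card G)
    (h : ∀ a : A, a ≠ 1 → Nat.card ↥(_root_.commutator ↥(FixedPoints.subgroup (Subgroup.zpowers a) G)) ≤ m) :
    Nat.card ↥(_root_.commutator G) ≤ FF q m := by
  haveI := Fact.mk hq
  let φ : A →* MulAut G := MulDistribMulAction.toMulAut A G
  haveI : Finite (G ⋊[φ] A) := Finite.of_equiv _ SemidirectProduct.equivProd.symm
  have hinl : Function.Injective (inl : G →* G ⋊[φ] A) := inl_injective
  have hinr : Function.Injective (inr : A →* G ⋊[φ] A) := inr_injective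
  set K : Subgroup (G ⋊[φ] A) := (inl : G →* G ⋊[φ] A).range with hK
  set A' : Subgroup (G ⋊[φ] A) := (inr : A →* G ⋊[φ] A).range with hA'
  have cK : Nat.card K = Nat.card G := by
    rw [hK, MonoidHom.range_eq_map, card_map_of_injective hinl, card_top]
  have cA : Nat.card A' = q ^ 3 := by
    rw [hA', MonoidHom.range_eq_map, card_map_of_injective hinr, card_top, hA3]
  have hcommG : ∀ F : Subgroup G, Nat.card (_root_.commutator F) = Nat.card (⁅F.map (inl : G →* G ⋊[φ] A), F.map (inl : G →* G ⋊[φ] A)⁆ : Subgroup (G ⋊[φ] A)) := by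
    intro F
    have h1 : ((_root_.commutator F).map F.subtype).map (inl : G →* G ⋊[φ] A) =
        (⁅F.map (inl : G →* G ⋊[φ] A), F.map (inl : G →* G ⋊[φ] A)⁆ : Subgroup (G ⋊[φ] A)) := by
      rw [_root_.commutator_def, map_commutator, map_commutator, ← MonoidHom.range_eq_map, range_subtype]
    rw [← h1, card_map_of_injective hinl, card_map_of_injective F.subtype_injective]
  have h1 : Nat.card (_root_.commutator G) = Nat.card (⁅K, K⁆ : Subgroup (G ⋊[φ] A)) := by
    have h2 : (_root_.commutator G).map (inl : G →* G ⋊[φ] A) = ⁅K, K⁆ := by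
      rw [_root_.commutator_def, map_commutator, ← MonoidHom.range_eq_map]
    rw [← h2, card_map_of_injective hinl]
  have hfix : ∀ a : A, K ⊓ centralizer {(inr a : G ⋊[φ] A)} = (FixedPoints.subgroup (Subgroup.zpowers a) G).map inl := by
    intro a
    ext x
    constructor
    · rintro ⟨⟨g, rfl⟩, hx⟩
      refine ⟨g, ?_, rfl⟩
      have h2 : (inl g : G ⋊[φ] A) * inr a = inr a * inl g := mem_centralizer_singleton_iff.1 hx
      have h3 : (inr a : G ⋊[φ] A) * inl g * (inr a)⁻¹ = inl g := by rw [← h2, mul_inv_cancel_right]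
      have h4 : a • g = g := by
        have h5 := SemidirectProduct.inl_aut (φ := φ) a g
        rw [← map_inv, ] at h3
        rw [← h5] at h3
        exact hinl h3
      rintro ⟨b, hb⟩
      obtain ⟨n, rfl⟩ := mem_zpowers_iff.1 hb
      have h6 : a ∈ MulAction.stabilizer A g := h4
      exact (MulAction.stabilizer A g).zpow_mem h6 n
    · rintro ⟨g, hg, rfl⟩
      refine ⟨⟨g, rfl⟩, ?_⟩
      have h4 : a • g = g := hg ⟨a, mem_zpowers a⟩
      show (inl g : G ⋊[φ] A) ∈ centralizer {inr a}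
      rw [mem_centralizer_singleton_iff]
      have h5 := SemidirectProduct.inl_aut (φ := φ) a g
      have h6 : φ a g = g := h4
      rw [h6, map_inv, eq_mul_inv_iff_mul_eq] at h5
      exact h5
  have hm : 1 ≤ m := by
    haveI : Nontrivial A := by
      rw [← Finite.one_lt_card_iff_nontrivial, hA3]
      exact Nat.one_lt_pow (by norm_num) hq.one_lt
    obtain ⟨a, ha⟩ := exists_ne (1 : A)
    exact (Nat.card_pos (α := _root_.commutator ↥(FixedPoints.subgroup (Subgroup.zpowers a) G))).trans_le (h a ha)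
  rw [h1]
  refine main_bound (A := A') ⟨⟨⟨?_⟩⟩, ?_⟩ cA (by rw [cK]; exact hG) ?_ ?_ hm ?_
  · rintro ⟨_, ⟨a, rfl⟩⟩ ⟨_, ⟨b, rfl⟩⟩
    apply Subtype.ext
    show (inr a : G ⋊[φ] A) * inr b = inr b * inr a
    rw [← map_mul, ← map_mul, hAc]
  · rintro _ ⟨a, rfl⟩
    rw [← map_pow, hAe, map_one]
  · have : K.Normal := by rw [hK, range_inl_eq_ker_rightHom]; infer_instance
    rw [normalizer_eq_top]; exact le_top
  · rw [eq_top_iff]
    intro x _
    rw [← inl_left_mul_inr_right x]
    exact mul_mem (mem_sup_left ⟨_, rfl⟩) (mem_sup_right ⟨_, rfl⟩)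
  · rintro _ ⟨a, rfl⟩ ha1
    have ha : a ≠ 1 := fun h0 => ha1 (by rw [h0, map_one])
    rw [Wa, hfix a, ← hcommG]
    exact h a ha

end Ext

end Cfsg.Agent.H72.FD
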